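import Cfsg.Agent.H2.MinU.Classes
import Cfsg.Agent.H72.UnitaryTriple

/-!
Elements of prime order without invariant subspace in `SU 3`, and four impossible subgroup orders.
-/

set_option autoImplicit false
set_option linter.unusedSectionVars false

namespace Cfsg.Agent.H76.Singer3

open Matrix MulAction Cfsg.Agent.H2.MinU Polynomial

variable {F : Type*} [Field F] [Fintype F] {q : ℕ}

local notation "⟪" u ", " v "⟫" => Cfsg.hermForm _ F q u v

/-- The matrix of an element, as a homomorphism. -/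
noncomputable def toMat : Cfsg.SU 3 F q →* Matrix (Fin 3) (Fin 3) F where
  toFun g := (g.1 : Matrix (Fin 3) (Fin 3) F)
  map_one' := by simp
  map_mul' := by simp

lemma toMat_injective : Function.Injective (toMat (F := F) (q := q)) :=
  fun _ _ h => Subtype.ext (Subtype.ext h)

lemma toMat_mulVec (g : Cfsg.SU 3 F q) (v : Fin 3 → F) : toMat g *ᵥ v = g • v :=
  (smul_eq_act g v).symm

variable (hF : Fintype.card F = q ^ 2) {r : ℕ}

include hF

/-- The order of a vector stabiliser is prime to `r`: no fixed vector. -/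
theorem no_fixed (hr : r.Prime) (hrq : ¬ r ∣ q) (hr2 : ¬ r ∣ q ^ 2 - 1) {x : Cfsg.SU 3 F q}
    (hx : orderOf x = r) {v : Fin 3 → F} (hv : v ≠ 0) : x • v ≠ v := by
  intro h
  have hmem : x ∈ stabilizer (Cfsg.SU 3 F q) v := h
  have hd : r ∣ Nat.card (stabilizer (Cfsg.SU 3 F q) v) := hx ▸ Subgroup.orderOf_dvd_natCard _ hmem
  have hG := (stabilizer (Cfsg.SU 3 F q) v).card_mul_index
  rw [index_stabilizer, H72.UTriple.card_SU_three hF] at hG
  have hq := H3.two_le_q hF
  have h1 : 4 ≤ q ^ 2 := by nlinarith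
  by_cases h0 : ⟪v, v⟫ = 0
  · rw [card_orbit_iso hF (by norm_num) hv h0, pts_three] at hG
    have e : Nat.card (stabilizer (Cfsg.SU 3 F q) v) = q ^ 3 := by
      apply Nat.eq_of_mul_eq_mul_right (m := (q ^ 2 - 1) * (q ^ 3 + 1))
        (Nat.mul_pos (by omega) (Nat.succ_pos _))
      rw [hG]
    exact hrq (hr.dvd_of_dvd_pow (e ▸ hd))
  · rw [card_orbit_noniso hF (k := 2) (by norm_num) h0, if_pos (by decide)] at hG
    have e : Nat.card (stabilizer (Cfsg.SU 3 F q) v) = q * (q ^ 2 - 1) := by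
      apply Nat.eq_of_mul_eq_mul_right (m := q ^ 2 * (q ^ 3 + 1))
        (Nat.mul_pos (by nlinarith) (Nat.succ_pos _))
      rw [show (q ^ (2 + 1)) = q ^ 3 from rfl] at hG
      rw [hG]; ring
    rcases hr.dvd_mul.1 (e ▸ hd) with h' | h'
    exacts [hrq h', hr2 h']

/-- No proper invariant subspace. -/
theorem no_invariant (hr : r.Prime) (hrq : ¬ r ∣ q) (hr2 : ¬ r ∣ q ^ 2 - 1) (hr4 : ¬ r ∣ q ^ 4 - 1)
    {x : Cfsg.SU 3 F q} (hx : orderOf x = r) (W : Submodule F (Fin 3 → F))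
    (hW : ∀ w ∈ W, toMat x *ᵥ w ∈ W) : W = ⊥ ∨ W = ⊤ := by
  classical
  by_contra hne
  push Not at hne
  haveI := Fact.mk hr
  set d := Module.finrank F W with hd
  have hd0 : 1 ≤ d := Nat.one_le_iff_ne_zero.2 fun e => hne.1 (Submodule.finrank_eq_zero.1 e)
  have hd3 : d < 3 := by
    have := Submodule.finrank_lt hne.2
    rwa [Module.finrank_fin_fun] at this
  -- `x` acts on `W` without non-zero fixed vectors
  let f : Function.End W := fun w => ⟨x • w.1, by rw [← toMat_mulVec]; exact hW w.1 w.2⟩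
  have hfk : ∀ (k : ℕ) (w : W), ((f ^ k) w).1 = x ^ k • w.1 := by
    intro k
    induction k with
    | zero => intro w; simp; rfl
    | succ k ih =>
      intro w
      rw [pow_succ', pow_succ', mul_smul, ← ih]
      rfl
  have hf : f ^ r ^ 1 = 1 := funext fun w => Subtype.ext (by
    rw [pow_one, hfk, ← hx, pow_orderOf_eq_one, one_smul]; rfl)
  have hfix := Equiv.Perm.card_fixedPoints_modEq (f := f) (p := r) (n := 1) hf
  have hone : Fintype.card (Function.fixedPoints (f : W → W)) = 1 := by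
    refine Fintype.card_eq_one_iff.2 ⟨⟨0, Subtype.ext (smul_zero x)⟩, fun y => ?_⟩
    apply Subtype.ext
    by_contra h0
    have hy : f y.1 = y.1 := y.2
    exact no_fixed hF hr hrq hr2 hx (v := y.1.1) (fun e => h0 (Subtype.ext e))
      (congrArg Subtype.val hy)
  rw [hone, Module.card_eq_pow_finrank (K := F), hF, ← hd] at hfix
  have hQ : 1 ≤ (q ^ 2) ^ d := Nat.one_le_pow _ _ (by have := H3.two_le_q hF; positivity)
  have hdvd := (Nat.modEq_iff_dvd' hQ).1 hfix.symm
  interval_cases d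
  · exact hr2 (by simpa using hdvd)
  · exact hr4 (by simpa [← pow_mul] using hdvd)

/-- The centraliser acts semiregularly on non-zero vectors modulo scalars. -/
theorem scalar_of_eigen (hr : r.Prime) (hrq : ¬ r ∣ q) (hr2 : ¬ r ∣ q ^ 2 - 1) (hr4 : ¬ r ∣ q ^ 4 - 1)
    {x y : Cfsg.SU 3 F q} (hx : orderOf x = r) (hxy : Commute x y) {v : Fin 3 → F} (hv : v ≠ 0)
    {l : F} (h : y • v = l • v) (u : Fin 3 → F) : y • u = l • u := by
  let W : Submodule F (Fin 3 → F) :=
    LinearMap.ker (Matrix.mulVecLin (toMat y) - l • LinearMap.id)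
  have hmem : ∀ w, w ∈ W ↔ toMat y *ᵥ w = l • w := fun w => by
    simp [W, sub_eq_zero]
  rcases no_invariant hF hr hrq hr2 hr4 hx W fun w hw => by
    rw [hmem] at hw ⊢
    rw [Matrix.mulVec_mulVec, ← map_mul, ← hxy.eq, map_mul, ← Matrix.mulVec_mulVec, hw,
      Matrix.mulVec_smul] with h' | h'
  · exact absurd ((Submodule.mem_bot F).1 (h' ▸ (hmem v).2 (by rw [toMat_mulVec, h]))) hv
  · have := (hmem u).1 (h' ▸ Submodule.mem_top)
    rwa [toMat_mulVec] at this

/-- Semiregularity of the centraliser. -/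
theorem eq_one_of_fix (hr : r.Prime) (hrq : ¬ r ∣ q) (hr2 : ¬ r ∣ q ^ 2 - 1) (hr4 : ¬ r ∣ q ^ 4 - 1)
    {x y : Cfsg.SU 3 F q} (hx : orderOf x = r) (hxy : Commute x y) {v : Fin 3 → F} (hv : v ≠ 0)
    (h : y • v = v) : y = 1 := by
  refine ext_act fun u => ?_
  rw [act_one, ← smul_eq_act, scalar_of_eigen hF hr hrq hr2 hr4 hx hxy hv (l := 1) (by rw [h, one_smul]) u,
    one_smul]

/-- A centralising subgroup has order dividing `q ^ 3 + 1`. -/
theorem card_dvd (hr : r.Prime) (hrq : ¬ r ∣ q) (hr2 : ¬ r ∣ q ^ 2 - 1) (hr4 : ¬ r ∣ q ^ 4 - 1)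
    {x : Cfsg.SU 3 F q} (hx : orderOf x = r) (C : Subgroup (Cfsg.SU 3 F q))
    (hC : ∀ y ∈ C, Commute x y) : Nat.card C ∣ q ^ 3 + 1 := by
  classical
  have key : ∀ v : Fin 3 → F, v ≠ 0 → Nat.card C ∣ (orbit (Cfsg.SU 3 F q) v).ncard := by
    intro v hv
    have hfree : ∀ w : orbit (Cfsg.SU 3 F q) v, stabilizer C w = ⊥ := fun w => by
      refine (Subgroup.eq_bot_iff_forall _).2 fun c hc => Subtype.ext ?_
      have hw : w.1 ≠ 0 := fun e => by
        obtain ⟨g, hg⟩ := w.2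
        exact hv (smul_eq_zero_iff_eq g |>.mp (hg.trans e))
      exact eq_one_of_fix hF hr hrq hr2 hr4 hx (hC _ c.2) hw (congrArg Subtype.val (mem_stabilizer_iff.1 hc))
    rw [← Nat.card_coe_set_eq, Nat.card_congr (MulAction.selfEquivSigmaOrbits' C (orbit (Cfsg.SU 3 F q) v)), Nat.card_sigma]
    refine Finset.dvd_sum fun o _ => ?_
    induction o using Quotient.inductionOn' with
    | h w =>
      rw [MulAction.orbitRel.Quotient.orbit_mk]
      have := card_orbit_mul_stab C w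
      rw [Nat.card_congr (MulAction.orbitEquivQuotientStabilizer C w), hfree w,
        ← Subgroup.index_eq_card, Subgroup.index_bot]
  have h3 : (Pi.single 0 1 : Fin 3 → F) ≠ 0 := by simp
  have h31 : ⟪(Pi.single 0 1 : Fin 3 → F), (Pi.single 0 1 : Fin 3 → F)⟫ = 1 := by
    simp [Cfsg.hermForm, Pi.single_apply, q_ne_zero hF]
  have h1 := key _ h3
  rw [card_orbit_noniso hF (k := 2) (by norm_num) (by rw [h31]; exact one_ne_zero),
    if_pos (by decide), show q ^ (2 + 1) = q ^ 3 from rfl] at h1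
  have hq := H3.two_le_q hF
  obtain ⟨w, hw0, hw⟩ : ∃ w : Fin 3 → F, w ≠ 0 ∧ ⟪w, w⟫ = 0 := by
    by_contra! hall
    have h := card_iso hF (F := F) 3
    rw [pts_three] at h
    have e : {w : Fin 3 → F | w ≠ 0 ∧ ⟪w, w⟫ = 0} = ∅ :=
      Set.eq_empty_of_forall_notMem fun w hw => hall w hw.1 hw.2
    rw [e, Set.ncard_empty, Nat.cast_zero] at h
    have h4 : (0 : ℤ) < (q : ℤ) ^ 2 - 1 := by
      have : (4 : ℤ) ≤ (q : ℤ) ^ 2 := by exact_mod_cast (by nlinarith : 4 ≤ q ^ 2)
      linarith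
    have h5 : (0 : ℤ) < ((q ^ 3 + 1 : ℕ) : ℤ) := by exact_mod_cast Nat.succ_pos _
    exact absurd h (mul_pos h4 h5).ne
  have h2 := key w hw0
  rw [card_orbit_iso hF (by norm_num) hw0 hw, pts_three] at h2
  have hg : Nat.gcd (q ^ 2) (q ^ 2 - 1) = 1 := by
    obtain ⟨k, hk⟩ : ∃ k, q ^ 2 = k + 1 := ⟨q ^ 2 - 1, by have := Nat.one_le_pow 2 q (by omega); omega⟩
    rw [hk, Nat.add_sub_cancel]
    exact (Nat.coprime_self_add_left (m := k) (n := 1)).mpr (Nat.coprime_one_left k) |> fun h => by simpa [Nat.Coprime, add_comm] using h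
  have := Nat.dvd_gcd h1 h2
  rwa [Nat.gcd_mul_right, hg, one_mul] at this

/-- A centralising subgroup in odd characteristic has odd order. -/
theorem odd_card (hr : r.Prime) (hrq : ¬ r ∣ q) (hr2 : ¬ r ∣ q ^ 2 - 1) (hr4 : ¬ r ∣ q ^ 4 - 1)
    (h2 : (2 : F) ≠ 0)
    {x : Cfsg.SU 3 F q} (hx : orderOf x = r) (C : Subgroup (Cfsg.SU 3 F q))
    (hC : ∀ y ∈ C, Commute x y) : ¬ 2 ∣ Nat.card C := by
  intro hd
  obtain ⟨⟨y, hyC⟩, hy⟩ := exists_prime_orderOf_dvd_card' (G := C) 2 hd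
  rw [Subgroup.orderOf_mk] at hy
  have hyy : y * y = 1 := by rw [← pow_two, ← hy, pow_orderOf_eq_one]
  have hy1 : y ≠ 1 := fun e => by rw [e, orderOf_one] at hy; omega
  let v : Fin 3 → F := Pi.single 0 1
  have hv : v ≠ 0 := by simp [v]
  have hscal : ∃ l : F, l * l = 1 ∧ ∀ u : Fin 3 → F, y • u = l • u := by
    by_cases he : y • v + v = 0
    · refine ⟨-1, by ring, scalar_of_eigen hF hr hrq hr2 hr4 hx (hC _ hyC) hv ?_⟩
      rw [neg_one_smul]; exact eq_neg_of_add_eq_zero_left he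
    · refine ⟨1, by ring, scalar_of_eigen hF hr hrq hr2 hr4 hx (hC _ hyC) he ?_⟩
      rw [smul_add, ← mul_smul, hyy, one_smul, one_smul, add_comm]
  obtain ⟨l, hl, hu⟩ := hscal
  have hM : toMat y = l • (1 : Matrix (Fin 3) (Fin 3) F) := Matrix.ext_of_mulVec_single fun i => by
    rw [toMat_mulVec, hu, Matrix.smul_mulVec, Matrix.one_mulVec]
  have hdet : (toMat y).det = 1 := y.1.2
  rw [hM, Matrix.det_smul, Fintype.card_fin, Matrix.det_one, mul_one] at hdet
  have : l = 1 := by rw [pow_three, hl, mul_one] at hdet; exact hdet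
  refine hy1 (toMat_injective ?_)
  rw [hM, this, one_smul, map_one]

/-- Conjugates of `x` among its powers are its Frobenius images. -/
theorem conj_cases (hr : r.Prime) (hrq : ¬ r ∣ q) (hr2 : ¬ r ∣ q ^ 2 - 1) (hr4 : ¬ r ∣ q ^ 4 - 1)
    {x g : Cfsg.SU 3 F q} (hx : orderOf x = r) {k : ℕ} (hk : g * x * g⁻¹ = x ^ k) :
    g * x * g⁻¹ = x ∨ g * x * g⁻¹ = x ^ q ^ 2 ∨ g * x * g⁻¹ = x ^ q ^ 4 := by
  classical
  set X := toMat x with hX
  let E := Algebra.adjoin F ({X} : Set (Matrix (Fin 3) (Fin 3) F))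
  letI : CommRing E :=
    { (inferInstance : Ring E) with
      mul_comm := fun a b => Subtype.ext (Algebra.commute_of_mem_adjoin_singleton_of_commute a.2
        (Algebra.commute_of_mem_adjoin_self b.2).symm).symm.eq }
  haveI : NoZeroDivisors E := ⟨fun {a b} hab => by
    by_contra! h
    have hcom : Commute X (a : Matrix (Fin 3) (Fin 3) F) :=
      Algebra.commute_of_mem_adjoin_self a.2
    rcases no_invariant hF hr hrq hr2 hr4 hx
      (LinearMap.ker (Matrix.mulVecLin (a : Matrix (Fin 3) (Fin 3) F))) (fun w hw => by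
        rw [LinearMap.mem_ker, Matrix.mulVecLin_apply] at hw ⊢
        rw [Matrix.mulVec_mulVec, ← hX, ← hcom.eq, ← Matrix.mulVec_mulVec, hw, Matrix.mulVec_zero])
      with h' | h'
    · refine h.2 (Subtype.ext (Matrix.ext_of_mulVec_single fun i => ?_))
      rw [ZeroMemClass.coe_zero, Matrix.zero_mulVec]
      have hm : (b : Matrix (Fin 3) (Fin 3) F) *ᵥ Pi.single i 1 ∈
          LinearMap.ker (Matrix.mulVecLin (a : Matrix (Fin 3) (Fin 3) F)) := by
        rw [LinearMap.mem_ker, Matrix.mulVecLin_apply, Matrix.mulVec_mulVec,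
          show (a : Matrix (Fin 3) (Fin 3) F) * (b : Matrix (Fin 3) (Fin 3) F) = 0 from
            congrArg Subtype.val hab, Matrix.zero_mulVec]
      rw [h', Submodule.mem_bot] at hm
      simpa using hm
    · refine h.1 (Subtype.ext (Matrix.ext_of_mulVec_single fun i => ?_))
      rw [ZeroMemClass.coe_zero, Matrix.zero_mulVec]
      have hm : Pi.single i (1 : F) ∈
          LinearMap.ker (Matrix.mulVecLin (a : Matrix (Fin 3) (Fin 3) F)) := h' ▸ Submodule.mem_top
      simpa using (LinearMap.mem_ker.1 hm)⟩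
  haveI : IsDomain E := NoZeroDivisors.to_isDomain E
  let e : E := ⟨X, Algebra.subset_adjoin rfl⟩
  let P : F[X] := Matrix.charpoly X
  have hP : ∀ n : ℕ, ((aeval (e ^ n)) P : E).1 = aeval (X ^ n) P := fun n => by
    rw [← Subalgebra.coe_val, ← aeval_algHom_apply]; rfl
  have hroot : ∀ n : ℕ, aeval (X ^ n) P = 0 → aeval (e ^ n) P = 0 := fun n h =>
    Subtype.ext ((hP n).trans h)
  have hfrob : ∀ n : ℕ, aeval (e ^ n) P = 0 → aeval (e ^ (n * q ^ 2)) P = 0 := fun n h => by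
    rw [pow_mul, ← hF, ← Polynomial.expand_aeval, FiniteField.expand_card, map_pow, h,
      zero_pow Fintype.card_ne_zero]
  have h1 : aeval (e ^ 1) P = 0 := hroot 1 (by rw [pow_one]; exact Matrix.aeval_self_charpoly X)
  have h2 := hfrob 1 h1
  rw [one_mul] at h2
  have h4 := hfrob _ h2
  rw [← pow_add, show 2 + 2 = 4 from rfl] at h4
  have hk' : aeval (e ^ k) P = 0 := hroot k (by
    let u : (Matrix (Fin 3) (Fin 3) F)ˣ := (toMat (F := F) (q := q)).toHomUnits g
    have hc : X ^ k = (u : Matrix (Fin 3) (Fin 3) F) * X * (↑u⁻¹ : Matrix (Fin 3) (Fin 3) F) := by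
      rw [hX, ← map_pow, ← hk, map_mul, map_mul]
      rfl
    rw [hc]
    exact (Polynomial.aeval_algHom_apply (AlgEquiv.toAlgHom (MulSemiringAction.toAlgEquiv F
      (Matrix (Fin 3) (Fin 3) F) (ConjAct.toConjAct u))) X P).trans
      (by rw [Matrix.aeval_self_charpoly, map_zero]))
  -- distinct powers
  have hinj : ∀ m n : ℕ, e ^ m = e ^ n → x ^ m = x ^ n := fun m n h => toMat_injective (by
    rw [map_pow, map_pow]; exact congrArg Subtype.val h)
  have hne : ∀ m n : ℕ, m ≤ n → ¬ r ∣ n - m → e ^ m ≠ e ^ n := fun m n hmn hd h =>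
    hd (hx ▸ (Nat.modEq_iff_dvd' hmn).1 (pow_eq_pow_iff_modEq.1 (hinj m n h)))
  have hq := H3.two_le_q hF
  have hq1 : 1 ≤ q ^ 2 := Nat.one_le_pow _ _ (by omega)
  have hq4 : q ^ 2 ≤ q ^ 4 := Nat.pow_le_pow_right (by omega) (by norm_num)
  have d1 : e ^ 1 ≠ e ^ (q ^ 2) := hne _ _ hq1 hr2
  have d2 : e ^ 1 ≠ e ^ (q ^ 4) := hne _ _ (hq1.trans hq4) hr4
  have d3 : e ^ (q ^ 2) ≠ e ^ (q ^ 4) := hne _ _ hq4 (by
    rw [show q ^ 4 - q ^ 2 = q ^ 2 * (q ^ 2 - 1) by rw [Nat.mul_sub, mul_one, ← pow_add]]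
    intro h
    rcases hr.dvd_mul.1 h with h' | h'
    exacts [hrq (hr.dvd_of_dvd_pow h'), hr2 h'])
  by_contra hall
  push Not at hall
  have hk1 : e ^ k ≠ e ^ 1 := fun h => hall.1 (by rw [hk, hinj _ _ h, pow_one])
  have hk2 : e ^ k ≠ e ^ (q ^ 2) := fun h => hall.2.1 (by rw [hk, hinj _ _ h])
  have hk4 : e ^ k ≠ e ^ (q ^ 4) := fun h => hall.2.2 (by rw [hk, hinj _ _ h])
  have hmon : P.Monic := Matrix.charpoly_monic X
  have hPE : (P.map (algebraMap F E)) ≠ 0 := (hmon.map _).ne_zero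
  have hsub : ({e ^ k, e ^ 1, e ^ (q ^ 2), e ^ (q ^ 4)} : Finset E) ⊆
      (P.map (algebraMap F E)).roots.toFinset := by
    intro z hz
    rw [Multiset.mem_toFinset, mem_roots hPE, IsRoot, eval_map_algebraMap]
    simp only [Finset.mem_insert, Finset.mem_singleton] at hz
    rcases hz with rfl | rfl | rfl | rfl <;> assumption
  have hcard := (Finset.card_le_card hsub).trans
    ((Multiset.toFinset_card_le _).trans (card_roots' _))
  rw [hmon.natDegree_map, Matrix.charpoly_natDegree_eq_dim, Fintype.card_fin] at hcard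
  have h4c : ({e ^ k, e ^ 1, e ^ (q ^ 2), e ^ (q ^ 4)} : Finset E).card = 4 := by
    rw [Finset.card_insert_of_notMem (by simp only [Finset.mem_insert, Finset.mem_singleton]; tauto),
      Finset.card_insert_of_notMem (by simp only [Finset.mem_insert, Finset.mem_singleton]; tauto),
      Finset.card_insert_of_notMem (by simp only [Finset.mem_singleton]; tauto), Finset.card_singleton]
  omega

/-- The order of a normaliser of `zpowers x`. -/
theorem card_normaliser (hr : r.Prime) (hrq : ¬ r ∣ q) (hr2 : ¬ r ∣ q ^ 2 - 1) (hr4 : ¬ r ∣ q ^ 4 - 1)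
    (hr8 : ¬ r ∣ q ^ 8 - 1) {x : Cfsg.SU 3 F q} (hx : orderOf x = r) (N : Subgroup (Cfsg.SU 3 F q))
    (hN : ∀ g ∈ N, g * x * g⁻¹ ∈ Subgroup.zpowers x) :
    ∃ c, c ∣ q ^ 3 + 1 ∧ ((2 : F) ≠ 0 → ¬ 2 ∣ c) ∧ (Nat.card N = c ∨ Nat.card N = 3 * c) := by
  classical
  letI : MulAction N (Cfsg.SU 3 F q) :=
    MulAction.compHom _ ((MulAut.conj (G := Cfsg.SU 3 F q)).comp N.subtype)
  have hsmul : ∀ (g : N) (y : Cfsg.SU 3 F q), g • y = g.1 * y * g.1⁻¹ := fun _ _ => rfl
  set C := (stabilizer N x).map N.subtype with hC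
  have hcomm : ∀ y ∈ C, Commute x y := by
    rintro y ⟨g, hg, rfl⟩
    have h : g.1 * x * g.1⁻¹ = x := (hsmul g x).symm.trans hg
    show x * g.1 = g.1 * x
    conv_lhs => rw [← h]
    group
  refine ⟨Nat.card C, card_dvd hF hr hrq hr2 hr4 hx C hcomm,
    fun h2 => odd_card hF hr hrq hr2 hr4 h2 hx C hcomm, ?_⟩
  have hcard := (stabilizer N x).card_mul_index
  rw [index_stabilizer] at hcard
  rw [Subgroup.card_map_of_injective N.subtype_injective, ← hcard]
  have hsub : orbit N x ⊆ {x, x ^ q ^ 2, x ^ q ^ 4} := by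
    rintro _ ⟨g, rfl⟩
    show g • x ∈ _
    rw [hsmul]
    obtain ⟨k, hk⟩ := (isOfFinOrder_of_finite x).mem_powers_iff_mem_zpowers.mpr (hN g g.2)
    rcases conj_cases hF hr hrq hr2 hr4 hx (k := k) hk.symm with h | h | h <;> simp [h]
  by_cases h1 : orbit N x ⊆ {x}
  · left
    rw [show orbit N x = {x} from Set.Subset.antisymm h1 (Set.singleton_subset_iff.2 (mem_orbit_self x)),
      Set.ncard_singleton, mul_one]
  right
  obtain ⟨y, hy, hyx⟩ := Set.not_subset.1 h1
  have hq := H3.two_le_q hF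
  have hne : ∀ m n : ℕ, m ≤ n → ¬ r ∣ n - m → x ^ m ≠ x ^ n := fun m n hmn hd h =>
    hd (hx ▸ (Nat.modEq_iff_dvd' hmn).1 (pow_eq_pow_iff_modEq.1 h))
  have hq1 : 1 ≤ q ^ 2 := Nat.one_le_pow _ _ (by omega)
  have hq4 : q ^ 2 ≤ q ^ 4 := Nat.pow_le_pow_right (by omega) (by norm_num)
  have d1 : x ≠ x ^ q ^ 2 := by simpa using hne 1 _ hq1 hr2
  have d2 : x ≠ x ^ q ^ 4 := by simpa using hne 1 _ (hq1.trans hq4) hr4
  have d3 : x ^ q ^ 2 ≠ x ^ q ^ 4 := hne _ _ hq4 (by
    rw [show q ^ 4 - q ^ 2 = q ^ 2 * (q ^ 2 - 1) by rw [Nat.mul_sub, mul_one, ← pow_add]]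
    intro h
    rcases hr.dvd_mul.1 h with h' | h'
    exacts [hrq (hr.dvd_of_dvd_pow h'), hr2 h'])
  have d8 : x ≠ x ^ q ^ 8 := by simpa using hne 1 _ (Nat.one_le_pow _ _ (by omega)) hr8
  have hpow : ∀ (g : N) (n : ℕ), g • x ^ n = (g • x) ^ n := fun g n => by
    rw [hsmul, hsmul, conj_pow]
  have both : x ^ q ^ 2 ∈ orbit N x ∧ x ^ q ^ 4 ∈ orbit N x := by
    have step : ∀ g : N, g • x = x ^ q ^ 2 → x ^ q ^ 2 ∈ orbit N x ∧ x ^ q ^ 4 ∈ orbit N x := by
      intro g hg
      refine ⟨⟨g, hg⟩, ⟨g * g, ?_⟩⟩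
      show (g * g) • x = _
      rw [mul_smul, hg, hpow, hg, ← pow_mul, ← pow_add]
    obtain ⟨g, rfl⟩ := hy
    rcases hsub ⟨g, rfl⟩ with h | h | h
    · exact absurd h hyx
    · exact step g h
    · have h : g • x = x ^ q ^ 4 := h
      rcases hsub ⟨g⁻¹, rfl⟩ with h' | h' | h'
      · exact absurd (show g • x = x from (inv_smul_eq_iff.1 h').symm) hyx
      · exact step g⁻¹ h'
      · have h' : g⁻¹ • x = x ^ q ^ 4 := h'
        refine absurd ?_ d8
        calc x = g • g⁻¹ • x := (smul_inv_smul g x).symm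
          _ = x ^ q ^ 8 := by rw [h', hpow, h, ← pow_mul, ← pow_add]
  rw [show orbit N x = {x, x ^ q ^ 2, x ^ q ^ 4} from Set.Subset.antisymm hsub (by
    simp [Set.insert_subset_iff, both.1, both.2]),
    Set.ncard_eq_toFinset_card', mul_comm]
  congr 1
  simp [Finset.card_insert_of_notMem, d1, d2, d3]

/-- Sylow data of a subgroup at such a prime. -/
theorem sylow_data (hr : r.Prime) (hrq : ¬ r ∣ q) (hr2 : ¬ r ∣ q ^ 2 - 1) (hr4 : ¬ r ∣ q ^ 4 - 1)
    (hr8 : ¬ r ∣ q ^ 8 - 1) (H : Subgroup (Cfsg.SU 3 F q)) {m : ℕ} (hH : Nat.card H = r * m)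
    (hm : ¬ r ∣ m) :
    ∃ n e c, n * (r * e) = r * m ∧ n % r = 1 ∧ c ∣ q ^ 3 + 1 ∧ ((2 : F) ≠ 0 → ¬ 2 ∣ c) ∧
      (r * e = c ∨ r * e = 3 * c) ∧ n * (r - 1) ≤ Nat.card {g : H // g ^ r = 1 ∧ g ≠ 1} := by
  classical
  haveI := Fact.mk hr
  have hRr : ∀ P : Sylow r H, Nat.card P = r := fun P => by
    obtain ⟨k, hk⟩ := IsPGroup.iff_card.1 P.isPGroup'
    have hd : r ∣ Nat.card P := P.dvd_card_of_dvd_card (hH ▸ dvd_mul_right r m)
    have hd' : r ^ k ∣ r * m := hk ▸ hH ▸ Subgroup.card_subgroup_dvd_card _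
    rw [hk] at hd ⊢
    rcases k with _ | _ | k
    · simp [hr.ne_one] at hd
    · simp
    · exfalso
      rw [pow_succ', Nat.mul_dvd_mul_iff_left hr.pos, pow_succ'] at hd'
      exact hm ((dvd_mul_right r _).trans hd')
  obtain ⟨R⟩ : Nonempty (Sylow r H) := inferInstance
  set N := Subgroup.normalizer (R : Set H) with hN
  have hcardN : Nat.card (Sylow r H) * Nat.card N = r * m := by
    rw [Sylow.card_eq_index_normalizer R, ← hH, mul_comm]
    exact N.card_mul_index
  obtain ⟨e, he⟩ : r ∣ Nat.card N :=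
    hRr R ▸ Subgroup.card_dvd_of_le Subgroup.le_normalizer
  obtain ⟨⟨x, hxR⟩, hx⟩ := exists_prime_orderOf_dvd_card' (G := R) r (by rw [hRr R])
  rw [Subgroup.orderOf_mk] at hx
  have hz : Subgroup.zpowers x = (R : Subgroup H) :=
    Subgroup.eq_of_le_of_card_ge (Subgroup.zpowers_le.2 hxR) (by
      rw [Nat.card_zpowers, hx]; exact (hRr R).le)
  have hxG : orderOf (x : Cfsg.SU 3 F q) = r := by rw [Subgroup.orderOf_coe, hx]
  obtain ⟨c, hc, hodd, hNc⟩ := card_normaliser hF hr hrq hr2 hr4 hr8 hxG (N.map H.subtype) (by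
    rintro _ ⟨g, hg, rfl⟩
    have h : g * x * g⁻¹ ∈ (R : Subgroup H) := (Subgroup.mem_normalizer_iff.1 hg x).1 hxR
    rw [← hz] at h
    have := Subgroup.mem_map_of_mem H.subtype h
    rwa [MonoidHom.map_zpowers] at this)
  rw [Subgroup.card_map_of_injective H.subtype_injective, he] at hNc
  refine ⟨Nat.card (Sylow r H), e, c, he ▸ hcardN, ?_, hc, hodd, hNc, ?_⟩
  · exact Eq.trans (card_sylow_modEq_one r H) (Nat.one_mod_eq_one.2 hr.ne_one)
  -- non-identity elements of the Sylow subgroups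
  let f : (Σ P : Sylow r H, {y : P // y ≠ 1}) → {g : H // g ^ r = 1 ∧ g ≠ 1} := fun s =>
    ⟨s.2.1.1, by
      have := pow_card_eq_one' (G := (s.1 : Subgroup H)) (x := s.2.1)
      rw [hRr s.1] at this
      exact congrArg Subtype.val this, fun h => s.2.2 (Subtype.ext h)⟩
  have hf : Function.Injective f := by
    rintro ⟨P, y, hy⟩ ⟨P', y', hy'⟩ h
    have e : y.1 = y'.1 := congrArg Subtype.val h
    obtain rfl : P = P' := by
      apply Sylow.ext
      have gen : ∀ (Q : Sylow r H) (w : Q), w ≠ 1 → Subgroup.zpowers (w : H) = (Q : Subgroup H) :=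
        fun Q w hw => Subgroup.eq_of_le_of_card_ge (Subgroup.zpowers_le.2 w.2) (by
          rw [Nat.card_zpowers, Subgroup.orderOf_coe, orderOf_eq_prime (hRr Q ▸ pow_card_eq_one') hw]
          exact (hRr Q).le)
      rw [← gen P y hy, ← gen P' y' hy', e]
    obtain rfl : y = y' := Subtype.ext e
    rfl
  refine le_trans (le_of_eq ?_) (Nat.card_le_card_of_injective f hf)
  have hcount : ∀ P : Sylow r H, Nat.card {y : P // y ≠ 1} = r - 1 := fun P => by
    rw [Nat.card_eq_fintype_card, Fintype.card_subtype_compl, Fintype.card_subtype_eq,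
      ← Nat.card_eq_fintype_card]
    exact congrArg (· - 1) (hRr P)
  rw [Nat.card_sigma, Finset.sum_eq_card_nsmul fun P _ => hcount P, Finset.card_univ, smul_eq_mul,
    Nat.card_eq_fintype_card]

omit hF in
/-- A small search. -/
theorem search {r m K n e : ℕ} (hr : 0 < r) (h : ∀ e ∈ K.divisors, e ∣ m → m / e % r ≠ 1)
    (hK : K ≠ 0) (hn : n * (r * e) = r * m) (he : r * e ∣ r * K) (hm : 0 < m) : n % r ≠ 1 := by
  have h1 : n * e = m := Nat.eq_of_mul_eq_mul_left hr (by rw [← hn]; ring)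
  have he0 : 0 < e := Nat.pos_of_ne_zero fun h0 => by rw [h0, mul_zero] at h1; omega
  have h2 := h e (Nat.mem_divisors.2 ⟨Nat.dvd_of_mul_dvd_mul_left hr he, hK⟩) ⟨n, by rw [← h1]; ring⟩
  rwa [← h1, Nat.mul_div_cancel _ he0] at h2

/-- The four impossible subgroup orders. -/
theorem no_sub_singer (H : Subgroup (Cfsg.SU 3 F q))
    (hcen : Subgroup.center (Cfsg.SU 3 F q) ≤ H) :
    (q = 3 ∧ Nat.card H = 224) ∨ (q = 8 ∧ Nat.card H = 36936) ∨
      (q = 9 ∧ (Nat.card H = 157680 ∨ Nat.card H = 78840)) ∨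
      (q = 11 ∧ Nat.card H = 439560 ∧ 13320 ≤ Nat.card {g : H // g ^ 11 = 1 ∧ g ≠ 1}) → False := by
  classical
  have three : ∀ {e c k : ℕ} {r : ℕ}, c ∣ k → (r * e = c ∨ r * e = 3 * c) → r * e ∣ 3 * k := by
    rintro e c k r hc (h | h) <;> rw [h]
    exacts [hc.mul_left 3, Nat.mul_dvd_mul_left 3 hc]
  rintro (⟨rfl, hH⟩ | ⟨rfl, hH⟩ | ⟨rfl, hH⟩ | ⟨rfl, hH, h11⟩)
  · obtain ⟨n, e, c, hn, h1, hc, hodd, hNc, -⟩ := sylow_data hF (r := 7) (by norm_num) (by norm_num)
      (by norm_num) (by norm_num) (by norm_num) H (m := 32) (by rw [hH]) (by norm_num)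
    have h2 : (2 : F) ≠ 0 := by
      intro h
      have h9 : ((Fintype.card F : ℕ) : F) = 0 := Nat.cast_card_eq_zero F
      rw [hF] at h9
      have : (1 : F) = 0 := by linear_combination (norm := (push_cast; ring)) h9 - 4 * h
      exact one_ne_zero this
    have hc7 : c ∣ 7 := (Nat.Coprime.pow_right 2 ((Nat.coprime_comm.1
      (Nat.prime_two.coprime_iff_not_dvd.2 (hodd h2))))).dvd_of_dvd_mul_left (by norm_num at hc ⊢; exact hc)
    exact search (r := 7) (K := 3) (by norm_num) (by decide) (by norm_num) hn (three hc7 hNc)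
      (by norm_num) h1
  · obtain ⟨n, e, c, hn, h1, hc, hodd, hNc, -⟩ := sylow_data hF (r := 19) (by norm_num) (by norm_num)
      (by norm_num) (by norm_num) (by norm_num) H (m := 1944) (by rw [hH]) (by norm_num)
    exact search (r := 19) (K := 81) (by norm_num) (by decide) (by norm_num) hn
      ((three hc hNc).trans (by norm_num)) (by norm_num) h1
  · rcases hH with hH | hH
    · obtain ⟨n, e, c, hn, h1, hc, hodd, hNc, -⟩ := sylow_data hF (r := 73) (by norm_num) (by norm_num)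
        (by norm_num) (by norm_num) (by norm_num) H (m := 2160) (by rw [hH]) (by norm_num)
      exact search (r := 73) (K := 30) (by norm_num) (by decide) (by norm_num) hn
        ((three hc hNc).trans (by norm_num)) (by norm_num) h1
    · obtain ⟨n, e, c, hn, h1, hc, hodd, hNc, -⟩ := sylow_data hF (r := 73) (by norm_num) (by norm_num)
        (by norm_num) (by norm_num) (by norm_num) H (m := 1080) (by rw [hH]) (by norm_num)
      exact search (r := 73) (K := 30) (by norm_num) (by decide) (by norm_num) hn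
        ((three hc hNc).trans (by norm_num)) (by norm_num) h1
  · obtain ⟨n, e, c, hn, h1, hc, hodd, hNc, hA⟩ := sylow_data hF (r := 37) (by norm_num) (by norm_num)
      (by norm_num) (by norm_num) (by norm_num) H (m := 11880) (by rw [hH]) (by norm_num)
    have hn3 : n = 3960 := by
      by_contra hne
      have h2 : n * e = 11880 := by linarith
      have he : e ∣ 108 := Nat.dvd_of_mul_dvd_mul_left (by norm_num : 0 < 37)
        ((three hc hNc).trans (by norm_num))
      have hmem : e ∈ Nat.divisors 108 := Nat.mem_divisors.2 ⟨he, by norm_num⟩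
      have hall : ∀ e ∈ Nat.divisors 108, 11880 / e % 37 = 1 → e = 3 := by decide
      have he0 : 0 < e := Nat.pos_of_mem_divisors hmem
      have := hall e hmem (by rw [← h2, Nat.mul_div_cancel _ he0]; exact h1)
      subst this
      omega
    set Z := Subgroup.center (Cfsg.SU 3 F 11) with hZ
    have hZc : Nat.card Z = 3 := by rw [hZ, H3.card_center_SU hF (by norm_num)]; rfl
    have hz3 : ∀ z : Z, (z : Cfsg.SU 3 F 11) ^ 3 = 1 := fun z => by
      have := pow_card_eq_one' (G := Z) (x := z)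
      rw [hZc] at this
      exact congrArg Subtype.val this
    let A := {g : H // g ^ 37 = 1 ∧ g ≠ 1}
    let B := {g : H // g ^ 11 = 1 ∧ g ≠ 1}
    let ι : A ⊕ B → H := Sum.elim (fun a => a.1) (fun b => b.1)
    have hι : ∀ a, ι a ^ (37 * 11) = 1 := by
      rintro (a | b)
      · show a.1 ^ _ = 1; rw [pow_mul, a.2.1, one_pow]
      · show b.1 ^ _ = 1; rw [mul_comm, pow_mul, b.2.1, one_pow]
    have hιi : Function.Injective ι := by
      rintro (a | a) (b | b) h
      · exact congrArg _ (Subtype.ext h)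
      · exfalso
        have h' : a.1 ^ 11 = 1 := by rw [show a.1 = b.1 from h, b.2.1]
        exact a.2.2 (by simpa using pow_gcd_eq_one.mpr ⟨a.2.1, h'⟩)
      · exfalso
        have h' : a.1 ^ 37 = 1 := by rw [show a.1 = b.1 from h, b.2.1]
        exact a.2.2 (by simpa using pow_gcd_eq_one.mpr ⟨a.2.1, h'⟩)
      · exact congrArg _ (Subtype.ext h)
    let f : Z × (A ⊕ B) → H := fun p => ⟨p.1.1, hcen p.1.2⟩ * ι p.2
    have hfi : Function.Injective f := by
      rintro ⟨z, a⟩ ⟨z', a'⟩ h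
      have key : ∀ (w : Z) (c : A ⊕ B), f (w, c) ^ 408 = ι c := fun w c => by
        have hcm : Commute (⟨w.1, hcen w.2⟩ : H) (ι c) :=
          Subtype.ext ((Subgroup.mem_center_iff.1 w.2 (ι c).1).symm)
        show (_ * _) ^ 408 = _
        rw [hcm.mul_pow, show 408 = 37 * 11 + 1 from rfl, pow_succ (ι c), hι, one_mul]
        have e1 : (⟨w.1, hcen w.2⟩ : H) ^ (37 * 11 + 1) = 1 := Subtype.ext (by
          push_cast; rw [show 408 = 3 * 136 from rfl, pow_mul, hz3, one_pow])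
        rw [e1, one_mul]
      have hca : a = a' := hιi (by rw [← key z a, ← key z' a', h])
      subst hca
      refine Prod.ext (Subtype.ext ?_) rfl
      have h' : (⟨z.1, hcen z.2⟩ : H) = ⟨z'.1, hcen z'.2⟩ := mul_right_cancel (b := ι a) h
      exact Subtype.mk.inj h'
    have hle := Nat.card_le_card_of_injective f hfi
    rw [Nat.card_prod, Nat.card_sum, hZc, hH] at hle
    change _ ≤ Nat.card A at hA
    change 13320 ≤ Nat.card B at h11
    rw [hn3] at hA
    omega

end Cfsg.Agent.H76.Singer3
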